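import Cfsg.Agent.H766.HT.OrdO
import Cfsg.Agent.S0292
import Cfsg.Agent.S0293
import Cfsg.Agent.S0294

/-!
# The `p`-parts of the orders of the simple orthogonal groups (helper766)
-/

set_option autoImplicit false
set_option linter.unusedSectionVars false

namespace Cfsg.Agent.H766.HT

open Finset

variable {p : ℕ} [hp : Fact p.Prime] {F : Type*} [Field F] [Fintype F] {q : ℕ}

theorem fac_prod_vS (hq : 2 ≤ q) (m : ℕ) :
    (∏ i ∈ range m, (q ^ (2 * (i + 1)) - 1)).factorization p = vS p q m := by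
  have hpos : ∀ i ∈ range m, q ^ (2 * (i + 1)) - 1 ≠ 0 := by
    intro i _
    have : 1 < q ^ (2 * (i + 1)) := Nat.one_lt_pow (by omega) (by omega)
    omega
  rw [Nat.factorization_prod hpos, Finsupp.finsetSum_apply]
  rfl

theorem prod_ne (hq : 2 ≤ q) (m : ℕ) : ∏ i ∈ range m, (q ^ (2 * (i + 1)) - 1) ≠ 0 := by
  refine prod_ne_zero_iff.2 fun i _ => ?_
  have : 1 < q ^ (2 * (i + 1)) := Nat.one_lt_pow (by omega) (by omega)
  omega

theorem fac_gcd_four (hp2 : p ≠ 2) (x : ℕ) : (Nat.gcd 4 x).factorization p = 0 := by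
  refine Nat.factorization_eq_zero_of_not_dvd fun h => ?_
  have h1 : p ∣ 2 * 2 := h.trans (Nat.gcd_dvd_left 4 x)
  rcases hp.out.dvd_mul.1 h1 with h2 | h2 <;>
    exact hp2 ((Nat.prime_dvd_prime_iff_eq hp.out Nat.prime_two).1 h2)

theorem val_omega_odd (hp2 : p ≠ 2) (hF : Fintype.card F = q) (hpq : ¬ p ∣ q) (hodd : Odd q) {m : ℕ} (hm : 3 ≤ m) :
    (Nat.card (Cfsg.POmega F (Cfsg.quadFormOdd m F))).factorization p = vS p q m := by
  have hq : 2 ≤ q := by rw [← hF]; exact Fintype.one_lt_card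
  have h := Cfsg.Agent.S0292.result hF hodd m hm
  have h0 : Nat.card (Cfsg.POmega F (Cfsg.quadFormOdd m F)) ≠ 0 := Nat.card_pos.ne'
  have h1 := congrArg (fun n => n.factorization p) h
  rw [Nat.factorization_mul (by norm_num) h0, Finsupp.add_apply,
    Nat.factorization_mul (pow_ne_zero _ (by omega)) (prod_ne hq m), Finsupp.add_apply,
    Nat.factorization_eq_zero_of_not_dvd (n := 2) (fun h => hp2 ((Nat.prime_dvd_prime_iff_eq hp.out Nat.prime_two).1 h)),
    Nat.factorization_eq_zero_of_not_dvd (n := q ^ (m ^ 2)) (fun h => hpq (hp.out.dvd_of_dvd_pow h)),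
    fac_prod_vS hq, Nat.zero_add, Nat.zero_add] at h1
  exact h1

theorem val_omega_plus (hp2 : p ≠ 2) (hF : Fintype.card F = q) (hpq : ¬ p ∣ q) {m : ℕ} (hm : 4 ≤ m) :
    (Nat.card (Cfsg.POmega F (Cfsg.quadFormPlus m F))).factorization p =
      (q ^ m - 1).factorization p + vS p q (m - 1) := by
  have hq : 2 ≤ q := by rw [← hF]; exact Fintype.one_lt_card
  have h := Cfsg.Agent.S0293.result hF m hm
  have h0 : Nat.card (Cfsg.POmega F (Cfsg.quadFormPlus m F)) ≠ 0 := Nat.card_pos.ne'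
  have h2 : 1 < q ^ m := Nat.one_lt_pow (by omega) (by omega)
  have h1 := congrArg (fun n => n.factorization p) h
  rw [Nat.factorization_mul (Nat.gcd_pos_of_pos_left _ (by norm_num)).ne' h0, Finsupp.add_apply,
    Nat.factorization_mul (mul_ne_zero (pow_ne_zero _ (by omega)) (by omega)) (prod_ne hq (m - 1)), Finsupp.add_apply,
    Nat.factorization_mul (pow_ne_zero _ (by omega)) (by omega), Finsupp.add_apply,
    fac_gcd_four hp2,
    Nat.factorization_eq_zero_of_not_dvd (n := q ^ (m * (m - 1))) (fun h => hpq (hp.out.dvd_of_dvd_pow h)),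
    fac_prod_vS hq, Nat.zero_add, Nat.zero_add] at h1
  exact h1

theorem val_omega_minus (hp2 : p ≠ 2) (hF : Fintype.card F = q) (hpq : ¬ p ∣ q) {m : ℕ} (hm : 4 ≤ m) (a b : F)
    (hab : ∀ z₁ z₂ : F, z₁ ^ 2 + a * z₁ * z₂ + b * z₂ ^ 2 = 0 → z₁ = 0 ∧ z₂ = 0) :
    (Nat.card (Cfsg.POmega F (Cfsg.quadFormMinus (m - 1) F a b))).factorization p =
      (q ^ m + 1).factorization p + vS p q (m - 1) := by
  have hq : 2 ≤ q := by rw [← hF]; exact Fintype.one_lt_card
  have h := Cfsg.Agent.S0294.result hF m hm a b hab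
  have h0 : Nat.card (Cfsg.POmega F (Cfsg.quadFormMinus (m - 1) F a b)) ≠ 0 := Nat.card_pos.ne'
  have h1 := congrArg (fun n => n.factorization p) h
  rw [Nat.factorization_mul (Nat.gcd_pos_of_pos_left _ (by norm_num)).ne' h0, Finsupp.add_apply,
    Nat.factorization_mul (mul_ne_zero (pow_ne_zero _ (by omega)) (by omega)) (prod_ne hq (m - 1)), Finsupp.add_apply,
    Nat.factorization_mul (pow_ne_zero _ (by omega)) (by omega), Finsupp.add_apply,
    fac_gcd_four hp2,
    Nat.factorization_eq_zero_of_not_dvd (n := q ^ (m * (m - 1))) (fun h => hpq (hp.out.dvd_of_dvd_pow h)),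
    fac_prod_vS hq, Nat.zero_add, Nat.zero_add] at h1
  exact h1

end Cfsg.Agent.H766.HT
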